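import Mathlib
import Cfsg.Agent.Lib.F24T.Orb
import Cfsg.Agent.Lib.InvChar.AutElem
import Cfsg.Agent.Lib.Classical.SLCard

/-!
An elementary abelian group of order eight with a basis of centres of large extraspecial groups containing it.
-/

set_option autoImplicit false

namespace CfsgLib.F24T

open CfsgLib.ExtraTwo CfsgLib.LargeExtra Subgroup Matrix

variable {G : Type*} [Group G]

/-- the element with given coordinates -/
def eps (b : Fin 3 → G) (v : Fin 3 → ZMod 2) : G := b 0 ^ (v 0).val * b 1 ^ (v 1).val * b 2 ^ (v 2).val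

theorem eps_single (b : Fin 3 → G) (i : Fin 3) : eps b (Pi.single i 1) = b i := by
  fin_cases i <;> simp [eps, ZMod.val_one]

theorem eps_mem {b : Fin 3 → G} {S : Subgroup G} (h : ∀ i, b i ∈ S) (v : Fin 3 → ZMod 2) : eps b v ∈ S :=
  mul_mem (mul_mem (pow_mem (h 0) _) (pow_mem (h 1) _)) (pow_mem (h 2) _)

/-- `V` has the basis `b`, and `b i` is the centre of `P i ≥ V` -/
structure E8 (V : Subgroup G) (b : Fin 3 → G) (P : Fin 3 → Subgroup G) : Prop where
  pre : ∀ i, Pre (P i) (b i)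
  mem : ∀ i j, b j ∈ P i
  comm : ∀ i j, Commute (b i) (b j)
  inj : Function.Injective (eps b)
  eq : ∀ x, x ∈ V ↔ ∃ v, eps b v = x

namespace E8

variable {V : Subgroup G} {b : Fin 3 → G} {P : Fin 3 → Subgroup G} (h : E8 V b P)
include h

theorem add (u v : Fin 3 → ZMod 2) : eps b (u + v) = eps b u * eps b v := by
  have k : ∀ i (x y : ZMod 2), b i ^ (x + y).val = b i ^ x.val * b i ^ y.val := fun i x y => by
    rw [ZMod.val_add, ← pow_eq_pow_mod _ ((pow_two _).trans (h.pre i).es.mul_self), pow_add]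
  simp only [eps, Pi.add_apply, k]
  rw [((h.comm 0 1).pow_pow _ _).mul_mul_mul_comm, (((h.comm 0 2).pow_pow _ _).mul_left
    ((h.comm 1 2).pow_pow _ _)).mul_mul_mul_comm]

theorem bV (i : Fin 3) : b i ∈ V := (h.eq _).2 ⟨_, eps_single b i⟩

theorem le {S : Subgroup G} (hS : ∀ i, b i ∈ S) : V ≤ S := fun x hx => by
  obtain ⟨v, rfl⟩ := (h.eq x).1 hx; exact eps_mem hS v

theorem mem_cent {x : G} : x ∈ centralizer (V : Set G) ↔ ∀ i, b i * x = x * b i :=
  ⟨fun hx i => hx _ (h.bV i), fun hx _ hy => LargeExtra.mem_cent.1 (h.le (fun i => LargeExtra.mem_cent.2 (hx i)) hy)⟩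

theorem card : Nat.card V = 8 :=
  (Nat.card_eq_of_bijective (fun v => (⟨eps b v, (h.eq _).2 ⟨v, rfl⟩⟩ : V)) ⟨fun _ _ e => h.inj (congrArg (·.1) e),
    fun x => ((h.eq x).1 x.2).imp fun _ => Subtype.ext⟩).symm.trans (by simp)

theorem elem : Cfsg.IsElementaryAbelian 2 V := by
  refine ⟨⟨⟨fun x y => Subtype.ext (h.le (fun i => h.mem_cent.2 fun j => h.comm j i) y.2 x x.2)⟩⟩, fun x hx => ?_⟩
  obtain ⟨v, rfl⟩ := (h.eq x).1 hx
  rw [pow_two, ← h.add, add_self_zmod2]; simp [eps]

theorem act {l : G} {A : Matrix (Fin 3) (Fin 3) (ZMod 2)} (e : ∀ j, l * b j * l⁻¹ = eps b (A.col j))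
    (v : Fin 3 → ZMod 2) : l * eps b v * l⁻¹ = eps b (A *ᵥ v) := by
  have k : ∀ (c : ZMod 2) u, eps b (c • u) = eps b u ^ c.val := fun c u => by
    rcases zmod2_cases c with rfl | rfl <;> simp [eps, ZMod.val_one]
  rw [show A *ᵥ v = v 0 • A.col 0 + v 1 • A.col 1 + v 2 • A.col 2 by
    ext i; simp [mulVec, dotProduct, Fin.sum_univ_three, mul_comm], h.add, h.add, k, k, k, ← e, ← e, ← e]
  simp [eps]

theorem exists_tv {i j : Fin 3} (hij : i ≠ j) : ∃ k ∈ P i, k * b j * k⁻¹ = b j * b i ∧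
    ∀ l, l ≠ j → k * b l * k⁻¹ = b l := by
  obtain ⟨l, h1, h2, h3⟩ := (by decide : ∀ i j : Fin 3, i ≠ j → ∃ l, l ≠ i ∧ l ≠ j ∧ ∀ m, m ≠ j → m = i ∨ m = l) i j hij
  by_contra hn
  push Not at hn
  have := double_cent (h.pre i).es (h.mem i l) (h.mem i j) fun y hy e => by
    by_contra c
    obtain ⟨m, a1, a2⟩ := hn y hy ((h.pre i).es.conj_of_ne (h.mem i j) hy c)
    rcases h3 m a1 with rfl | rfl
    · exact a2 (conj_eq_of_comm ((h.pre m).es.comm_z y hy))
    · exact a2 (conj_eq_of_comm e)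
  simp only [← eps_single b, ← h.add, show (1 : G) = eps b 0 by simp [eps], h.inj.eq_iff] at this
  rcases this with e | e | e | e <;> simpa [hij.symm, h2.symm] using congrFun e j

theorem mem_norm [Finite G] {i : Fin 3} {k : G} (hk : k ∈ P i) : k ∈ normalizer (V : Set G) :=
  Core.mem_normalizer_of_forall_conj_mem fun u hu => by
    rcases (h.pre i).es.conj (h.le (h.mem i) hu) hk with e | e <;> rw [e]
    exacts [hu, mul_mem hu (h.bV i)]

theorem le_of_conj [Finite G] {W : Subgroup G} (h0 : b 0 ∈ W)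
    (hW : ∀ g ∈ normalizer (V : Set G), ∀ x ∈ W, g * x * g⁻¹ ∈ W) : V ≤ W := h.le fun i => by
  by_cases e : i = 0
  · rwa [e]
  obtain ⟨k, k1, k2, -⟩ := h.exists_tv e
  exact (mul_mem_cancel_left h0).1 (k2 ▸ hW k (h.mem_norm k1) _ h0)

theorem exists_prod [Finite G] {T : Type*} [Group T] (hT : center T = ⊥)
    (ψ : (centralizer (V : Set G)).subgroupOf (normalizer (V : Set G)) →* T) (hs : Function.Surjective ψ)
    (hP : ∀ i c, c.1.1 ∈ P i → ψ c = 1) :
    ∃ Φ : normalizer (V : Set G) →* SpecialLinearGroup (Fin 3) (ZMod 2) × T, Function.Surjective Φ ∧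
      Φ.ker = ψ.ker.map (Subgroup.subtype _) := by
  have := Finite.of_surjective ψ hs
  let Rel : normalizer (V : Set G) → SpecialLinearGroup (Fin 3) (ZMod 2) × T → Prop := fun l t =>
    (∀ v, l * eps b v * (l : G)⁻¹ = eps b (t.1.1 *ᵥ v)) ∧ ∀ c, ψ (MulAut.conjNormal l c) = t.2 * ψ c * t.2⁻¹
  have hm : ∀ a a' s t, Rel a s → Rel a' t → Rel (a * a') (s * t) := fun a a' s t x y =>
    ⟨fun v => by simp [← mulVec_mulVec, ← x.1, ← y.1, mul_assoc], fun c => by simp [x.2, y.2, mul_assoc]⟩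
  have hc : ∀ c, Rel c.1 (1, ψ c) := fun c => ⟨fun v => by
    simpa using conj_eq_of_comm (c.2 _ ((h.eq _).2 ⟨v, rfl⟩)).symm, fun d => by
      rw [← map_inv, ← map_mul, ← map_mul]; rfl⟩
  refine (exists_hom_of_rel Rel hm (fun t x => Prod.ext
    (Subtype.ext (ext_iff_mulVec.2 fun v => h.inj (by simpa using (x.1 v).symm)))
    (hT.le (mem_center_iff.2 fun y => (hs y).elim fun c e => by
      simpa [e, eq_mul_inv_iff_mul_eq] using x.2 c))) (ψ.ker.map (Subgroup.subtype _))
    (by rintro _ ⟨c, e, rfl⟩; simpa [show ψ c = 1 from e, Prod.mk_one_one] using hc c) {t | ∃ g, Rel g t} ?_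
    (fun _ => id) ?_).imp fun Φ x => ⟨x.1, x.2.1⟩
  · have := Classical.sl_eq_top_of_transvection_mem ((closure {t | ∃ g, Rel g t}).comap (MonoidHom.inl _ T))
      fun i j hij c => by
        rcases zmod2_cases c with rfl | rfl
        · simp [one_mem]
        obtain ⟨k, k1, k2, k3⟩ := h.exists_tv hij
        refine subset_closure ⟨⟨k, h.mem_norm k1⟩, h.act (A := 1 + single i j 1) fun l => ?_, fun c => ?_⟩
        · by_cases e : l = j
          · rw [e, k2, ← eps_single b, ← eps_single b, ← h.add]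
            congr 1; ext m; simp [single, Pi.single_apply, one_apply, eq_comm]
          · rw [k3 l e, ← eps_single b]
            congr 1; ext m; simp [single, Pi.single_apply, one_apply, Ne.symm e]
        · rw [← mul_inv_eq_one, MonoidHom.inl_apply, one_mul, inv_one, mul_one, ← map_inv, ← map_mul]
          refine hP i _ ?_
          simpa [mul_assoc] using mul_mem k1 ((h.pre i).norm _ (c.2 _ (h.bV i)).symm _ (inv_mem k1))
    refine top_unique fun t _ => ?_
    obtain ⟨c, e⟩ := hs t.2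
    simpa [e] using mul_mem (mem_comap.1 (this.ge (mem_top t.1))) (subset_closure ⟨_, hc c⟩)
  · have := h.elem.1
    obtain ⟨f, hf⟩ := InvChar.exists_mulAut_hom_GL (V := V) (p := 2) (n := 3)
      (fun x => Subtype.ext (h.elem.2 x x.2)) h.card.le
    have c1 := Nat.card_le_card_of_injective _ (hf.comp (normalizerMonoidHom V).range.subtype_injective)
    rw [← index_ker, normalizerMonoidHom_ker, card_GL_field] at c1
    rw [← card_mul_index ((centralizer (V : Set G)).subgroupOf _), ← ψ.ker.card_mul_index, index_ker,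
      MonoidHom.range_eq_top.2 hs, card_top, card_subtype, Nat.card_prod, Classical.sl3_card, mul_assoc, mul_comm (Nat.card T)]
    exact Nat.mul_le_mul_left _ (Nat.mul_le_mul_right _ c1)

end E8

end CfsgLib.F24T
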