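import Mathlib
import Cfsg.Agent.Lib.F24T.Thom
import Cfsg.Agent.Lib.F24T.E8
import Cfsg.Agent.Lib.LargeExtra.Sub

/-!
The local subgroup `2^(3+12).(L₃(2) × A₆)`.
-/

set_option autoImplicit false
set_option Elab.async false
set_option maxRecDepth 100000

namespace CfsgLib.F24T

open Cfsg CfsgLib.Golay CfsgLib.ExtraTwo CfsgLib.LargeExtra Subgroup

theorem exists_ell : ∀ v ∈ perp ellL, ∃ c d : ZMod 2, v = c • dec 85 + d • dec 170 := forall_dec fun c hc hm => by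
  have := of_allLT (by decide +kernel : allLT 4096 (fun c => or (not (inP ellL c)) (or (or (Nat.beq c 0)
    (Nat.beq c 85)) (or (Nat.beq c 170) (Nat.beq c 255)))) = true) hc
  simp only [dec_mem_perp.1 hm, Bool.not_true, Bool.false_or, Bool.or_eq_true, Nat.beq_eq] at this
  rcases this with (rfl | rfl) | rfl | rfl <;> decide

theorem lin_of_fix {g : GL0} (h : g ∈ Lin ∨ SL g) (h1 : g (dec 85) = dec 85) (h2 : g (dec 170) = dec 170) : g ∈ Lin :=
  h.resolve_right fun a => by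
    have := congrArg (fun f : GL0 => f (dec 85)) a
    simp only [LinearEquiv.mul_apply, h1, act_wS.app (a := 85) (b := 170) (by decide +kernel), h2,
      act_wS.app (a := 170) (b := 255) (by decide +kernel)] at this
    exact absurd this (by decide)

theorem eq_one_of_fix {g : GL0} (h0 : g ∈ N0) (h1 : g ∈ Lin) (h : ∀ v ∈ perp [85, 170], g v = v) : g = 1 := by
  have := card_chain (S := N0 ⊓ Lin) inf_le_left inf_le_right (P := fun _ _ => true) (fun _ _ _ _ _ _ => rfl)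
    (L := cL.drop 5) (N := 0xd00b00a0050002201100a0050aa055) (M := cI) (by decide +kernel)
  exact (eq_bot_of_card_le _ this).le ⟨⟨h0, h1⟩, mem_FixC.2 fun j hj => h _ (dec_mem_perp.2 (of_allLT (by decide +kernel :
    allLT 12 (fun j => inP [85, 170] (col 0xd00b00a0050002201100a0050aa055 j)) = true) hj))⟩

theorem normal_two_eq_bot {T : Type*} [Group T] [IsSimpleGroup T] (h : 3 ∣ Nat.card T) {K : Subgroup T}
    (hK : K.Normal) (hp : IsPGroup 2 K) [Finite T] : K = ⊥ := hK.eq_bot_or_eq_top.resolve_right fun e => by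
  obtain ⟨n, hn⟩ := IsPGroup.iff_card.1 hp
  rw [← card_top, ← e, hn] at h
  exact absurd (Nat.prime_three.dvd_of_dvd_pow h) (by decide)

variable {G : Type*} [Group G] {z s : G} {Q Q1 : Subgroup G} {π : G → V0}
  {ρ : centralizer ({z} : Set G) →* GL0}

theorem FM.exists_E8 (f : FM z Q π ρ) (p : Pair Q Q1 z s) (hQ : Nat.card Q1 = 2 ^ 13) (e : π s = dec 85) :
    ∃ t Q2, π t = dec 170 ∧ (∀ g : centralizer ({z} : Set G), (g : G) ∈ Q2 → ρ g ∈ Lin → ρ g ∈ Rb ρ Q1) ∧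
      E8 (f.co.sub (perp ellL)) ![z, s, t] ![Q, Q1, Q2] := by
  obtain ⟨o, ho⟩ := f.le wS_mem
  have tQ := f.norm o p.tQ
  have e' : π (o * s * (o : G)⁻¹) = dec 170 := by rw [← f.act o s p.tQ, ho, e]; exact act_wS.app (by decide +kernel)
  have k : ∀ x ∈ Q, ∀ c, π x = dec c → inP u0L c = true → x ∈ Q1 := fun x hx c h1 h2 =>
    ((f.co.sub_img inf_le_left ⟨f.co.es.mem, p.zQ1⟩).le ⟨hx, by
      rw [(f.pair85 p hQ e).1, h1]; exact dec_mem_perp.2 h2⟩).2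
  have m : ∀ i j, ![z, s, o * s * (o : G)⁻¹] j ∈ ![Q, Q1, Q1.map (MulAut.conj (o : G)).toMonoidHom] i := by
    simp only [Fin.forall_fin_succ]
    refine ⟨⟨f.co.es.mem, p.tQ, tQ, nofun⟩, ⟨p.zQ1, p.h1.es.mem, k _ tQ _ e' (by decide +kernel), nofun⟩,
      ⟨⟨z, p.zQ1, conj_eq_of_comm (mem_cent.1 o.2)⟩, ⟨_, k _ (f.norm o⁻¹ p.tQ) 255 ?_ (by decide +kernel), by
        simp [mul_assoc]⟩, ⟨s, p.h1.es.mem, rfl⟩, nofun⟩, nofun⟩
    rw [← f.act _ s p.tQ, map_inv, ho, e, ← act_wS.app (a := 255) (by decide +kernel)]; simp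
  have pr := p.h1.conj o
  refine ⟨_, Q1.map (MulAut.conj (o : G)).toMonoidHom, e', fun g hg hl => ⟨o⁻¹ * g * o, (mem_map_conj.1 hg :), by
    rw [map_mul, map_mul, map_inv, ho, mul_assoc, mem_cent.1 hl, inv_mul_cancel_left]⟩, ?_⟩
  generalize o * s * (o : G)⁻¹ = t at *
  have pw : ∀ x ∈ Q, ∀ c : ZMod 2, π (x ^ c.val) = c • π x := fun x _ c => by
    rcases zmod2_cases c with rfl | rfl <;> simp [ZMod.val_one, f.co.map_one]
  have pe : ∀ v, π (eps ![z, s, t] v) = v 1 • dec 85 + v 2 • dec 170 := fun v => by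
    rw [eps, f.co.map_mul _ (mul_mem (pow_mem (m 0 0) _) (pow_mem (m 0 1) _)) _ (pow_mem (m 0 2) _),
      f.co.map_mul _ (pow_mem (m 0 0) _) _ (pow_mem (m 0 1) _), pw _ (m 0 0), pw _ (m 0 1), pw _ (m 0 2)]
    simp [f.co.map_z, e, e']
  refine ⟨fun i => by fin_cases i; exacts [f.pre, p.h1, pr], m, fun i j => p.E_comm ⟨m 0 i, m 1 i⟩ ⟨m 0 j, m 1 j⟩,
    fun u v h => ?_, fun x => ⟨fun hx => ?_, ?_⟩⟩
  · obtain ⟨h1, h2⟩ := (by decide : ∀ a b c d : ZMod 2, a • dec 85 + b • dec 170 = c • dec 85 + d • dec 170 →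
      a = c ∧ b = d) _ _ _ _ ((pe u).symm.trans (h ▸ pe v))
    simp only [eps, h1, h2, mul_left_inj] at h
    have : u 0 = v 0 := by
      rcases zmod2_cases (u 0) with a | a <;> rcases zmod2_cases (v 0) with b | b <;>
        simp_all [ZMod.val_one, f.co.es.ne_one, f.co.es.ne_one.symm]
    ext i; fin_cases i <;> assumption
  · obtain ⟨c, d, h⟩ := exists_ell _ hx.2
    rcases (f.co.eq_iff (eps_mem (m 0) ![0, c, d]) hx.1).1 ((pe _).trans h.symm) with h | h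
    · exact ⟨_, h.symm⟩
    · exact ⟨![1, c, d], by rw [h, f.co.es.comm_z _ (eps_mem (m 0) _)]; simp [eps, ZMod.val_one, mul_assoc]⟩
  · rintro ⟨v, rfl⟩
    exact ⟨eps_mem (m 0) v, pe v ▸ add_mem (Submodule.smul_mem _ _ (dec_mem_perp.2 (by decide +kernel)))
      (Submodule.smul_mem _ _ (dec_mem_perp.2 (by decide +kernel)))⟩

theorem FM.local8 [Finite G] (f : FM z Q π ρ) : ∃ V R : Subgroup G, IsElementaryAbelian 2 V ∧ Nat.card V = 8 ∧ z ∈ V ∧
    IsSpecial 2 R ∧ Nat.card R = 2 ^ 15 ∧ (center R).map R.subtype = V ∧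
      ∃ Φ : normalizer (V : Set G) →* Matrix.SpecialLinearGroup (Fin 3) (ZMod 2) × alternatingGroup (Fin 6),
        Function.Surjective Φ ∧ Φ.ker.map (Subgroup.subtype _) = R := by
  obtain ⟨g, g1, g2⟩ := f.wc
  obtain ⟨p, hQ⟩ := f.pair g1 g2
  obtain ⟨π, ρ, f, e⟩ := f.exists_coord (trans3 (f.ty3 g1 (isConj_iff.mpr ⟨g, rfl⟩) g2))
  generalize g * z * g⁻¹ = s at *
  generalize Q.map (MulAut.conj g).toMonoidHom = Q1 at *
  obtain ⟨t, Q2, e', r2, h⟩ := f.exists_E8 p hQ e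
  obtain ⟨-, c32, hL, -⟩ := f.pair85 p hQ e
  obtain ⟨ψ0, s0, k0⟩ := f.exists_psi p hQ e
  have VQ : ∀ x, x ∈ f.co.sub (perp ellL) ↔ x ∈ Q ∧ π x ∈ perp ellL := fun _ => Iff.rfl
  generalize f.co.sub (perp ellL) = V at *
  have tQ : t ∈ Q := h.mem 0 2
  have hC : ∀ x, x ∈ centralizer (V : Set G) ↔ x * z = z * x ∧ x * s = s * x ∧ x * t = t * x := fun x => by
    simp [h.mem_cent, Fin.forall_fin_succ, eq_comm]
  have Cz : centralizer (V : Set G) ≤ centralizer {z} := fun x hx => mem_cent.2 ((hC x).1 hx).1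
  have fx : ∀ g : centralizer ({z} : Set G), (g : G) ∈ centralizer (V : Set G) → ρ g ∈ St 85 ∧ ρ g ∈ Lin := fun g hg => by
    have a := (f.fix_iff g p.tQ).2 (Or.inl (conj_eq_of_comm ((hC g).1 hg).2.1))
    have b := (f.fix_iff g tQ).2 (Or.inl (conj_eq_of_comm ((hC g).1 hg).2.2))
    rw [e] at a; rw [e'] at b
    exact ⟨a, lin_of_fix (f.semi g) a b⟩
  have w1 : wS (π s) = π t := by rw [e, e']; exact act_wS.app (by decide +kernel)
  have lift : ∀ g : centralizer ({z} : Set G), ρ g ∈ St 85 → ρ g ∈ Lin →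
      g * t * (g : G)⁻¹ = t ∨ g * t * (g : G)⁻¹ = t * z := fun g a b => (f.fix_iff g tQ).1 (by
    rw [← w1, wS_apply, Lin_smul b, e, show ρ g (dec 85) = dec 85 from a])
  have PQ : ∀ x ∈ Q, x ∈ centralizer (V : Set G) ↔ π x ∈ perp [85, 170] := fun x hx => by
    simp [hC, mem_perp, ← e, ← e', f.co.polar_iff hx p.tQ, f.co.polar_iff hx tQ, f.co.es.comm_z x hx]
  have P1 : ∀ r ∈ Lp, ∃ g : centralizer ({z} : Set G), (g : G) ∈ Q1 ∧ (g : G) ∈ centralizer (V : Set G) ∧ ρ g = r := by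
    rw [← hL]
    rintro _ ⟨⟨g, hg, rfl⟩, hl⟩
    have a := p.h1.es.comm_z _ hg
    refine ⟨g, hg, (hC _).2 ⟨mem_cent.1 g.2, a, comm_of_conj_eq ((lift g (show ρ g (dec 85) = dec 85 from
      e ▸ (f.R_tr p ⟨g, hg, rfl⟩).1) hl).resolve_right fun b => ?_)⟩, rfl⟩
    rcases p.h1.es.conj (h.mem 1 2) hg with c | c
    · exact f.co.es.ne_one (mul_eq_left.1 (b.symm.trans c))
    · exact p.ne (mul_left_cancel (b.symm.trans c)).symm
  let ι : (centralizer (V : Set G)).subgroupOf (normalizer (V : Set G)) →* centralizer ({z} : Set G) :=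
    ((normalizer (V : Set G)).subtype.comp (Subgroup.subtype _)).codRestrict _ fun c => Cz c.2
  let ψ := ψ0.comp ((ρ.comp ι).codRestrict (H0 ⊓ St 85) fun c => ⟨f.mem_H0 _, (fx (ι c) c.2).1⟩)
  have kψ : ∀ c, ψ c = 1 ↔ ρ (ι c) ∈ Rb ρ Q1 := fun c => k0 _
  obtain ⟨Φ, sΦ, kΦ⟩ := h.exists_prod (alternatingGroup.center_eq_bot (by simp)) ψ (fun y => by
    obtain ⟨x, hx, rfl⟩ : ∃ x : (H0 ⊓ St 85 : Subgroup GL0), x.1 ∈ Lin ∧ ψ0 x = y := by
      obtain ⟨x, rfl⟩ := s0 y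
      obtain ⟨r, r1, r2⟩ := SetLike.not_le_iff_exists.1 fun l : Rb ρ Q1 ≤ Lin => by
        rw [inf_eq_left.2 l] at hL; have := card_Lp_le; rw [← hL] at this; omega
      have r3 := ((f.Rb_eq p hQ e).le r1).1
      rcases f.H0_semi x.2.1 with l | l
      · exact ⟨x, l, rfl⟩
      · exact ⟨x * ⟨r, r3⟩, l.mul ((f.H0_semi r3.1).resolve_left r2), by rw [map_mul, (k0 ⟨r, r3⟩).2 r1, mul_one]⟩
    obtain ⟨a, ha⟩ := f.exists_rho x.2.1
    obtain ⟨a, a1, a2⟩ := f.exists_cent p a (by rw [ha, e]; exact x.2.2)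
    obtain ⟨c, c1, c2⟩ : ∃ c : centralizer ({z} : Set G), (c : G) ∈ centralizer (V : Set G) ∧ ρ c = x := by
      rcases lift a ((a1.trans ha).symm ▸ x.2.2) ((a1.trans ha).symm ▸ hx) with b | b
      · exact ⟨a, (hC _).2 ⟨mem_cent.1 a.2, a2, comm_of_conj_eq b⟩, a1.trans ha⟩
      obtain ⟨k, k1, k2, k3⟩ := h.exists_tv (i := 0) (j := 2) (by decide)
      refine ⟨(⟨k, f.pre.le_cent k1⟩ : centralizer ({z} : Set G))⁻¹ * a, (hC _).2 ⟨mem_cent.1 (Subtype.prop _),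
        Commute.mul_left (Commute.inv_left (comm_of_conj_eq (k3 1 (by decide)))) a2, comm_of_conj_eq ?_⟩, by
          rw [map_mul, map_inv, (f.ker ⟨k, _⟩).2 k1, a1, ha]; simp⟩
      calc k⁻¹ * a * t * (k⁻¹ * a)⁻¹ = k⁻¹ * (a * t * (a : G)⁻¹) * k := by group
        _ = t := by rw [b, ← show k * t * k⁻¹ = t * z from k2]; group
    exact ⟨⟨⟨c, centralizer_le_normalizer _ c1⟩, c1⟩, congrArg ψ0 (Subtype.ext c2)⟩) fun i c hc => (kψ c).2 (by
      fin_cases i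
      · exact (f.ker (ι c)).2 hc ▸ one_mem _
      · exact ⟨_, hc, rfl⟩
      · exact r2 _ hc (fx (ι c) c.2).2)
  have mR : ∀ g : centralizer ({z} : Set G), (g : G) ∈ Φ.ker.map (Subgroup.subtype _) ↔
      (g : G) ∈ centralizer (V : Set G) ∧ ρ g ∈ Lp := fun g => by
    rw [kΦ, ← hL]
    refine ⟨?_, fun x => ⟨_, ⟨⟨⟨g, centralizer_le_normalizer _ x.1⟩, x.1⟩, (kψ _).2 x.2.1, rfl⟩, rfl⟩⟩
    rintro ⟨_, ⟨c, c1, rfl⟩, c2⟩
    obtain rfl : ι c = g := Subtype.ext c2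
    exact ⟨c.2, (kψ _).1 c1, (fx (ι c) c.2).2⟩
  have RC : Φ.ker.map (Subgroup.subtype _) ≤ centralizer (V : Set G) := by
    rw [kΦ]; rintro _ ⟨_, ⟨c, -, rfl⟩, rfl⟩; exact c.2
  have nR : ∀ g ∈ normalizer (V : Set G), ∀ x ∈ Φ.ker.map (Subgroup.subtype _),
      g * x * g⁻¹ ∈ Φ.ker.map (Subgroup.subtype _) := by
    rintro g hg _ ⟨x, hx, rfl⟩; exact ⟨_, Φ.normal_ker.conj_mem x hx ⟨g, hg⟩, rfl⟩
  suffices ∀ R, Φ.ker.map (Subgroup.subtype _) = R → IsSpecial 2 R ∧ Nat.card R = 2 ^ 15 ∧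
      (center R).map R.subtype = V by
    obtain ⟨a, b, c⟩ := this _ rfl
    exact ⟨V, _, h.elem, h.card, h.bV 0, a, b, c, Φ, sΦ, rfl⟩
  intro R hR
  rw [hR] at mR RC nR
  have QR : ∀ x ∈ Q, π x ∈ perp [85, 170] → x ∈ R := fun x hx hp =>
    (mR ⟨x, f.pre.le_cent hx⟩).2 ⟨(PQ x hx).2 hp, (f.ker ⟨x, _⟩).2 hx ▸ one_mem _⟩
  have cR : Nat.card R = 2 ^ 15 := by
    have c1 := card_le_two_mul_lin (S := Rb ρ Q1) (by rintro _ ⟨g, -, rfl⟩; exact f.semi g)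
    have c2 := card_Lp_le
    rw [hL] at c1
    rw [f.card_Rb (RC.trans Cz), show Q ⊓ R = f.co.sub (perp [85, 170]) from Subgroup.ext fun x =>
      ⟨fun a => ⟨a.1, (PQ x a.1).1 (RC a.2)⟩, fun a => ⟨a.1, QR x a.1 a.2⟩⟩, f.co.card_sub, card_perp,
      show cntLT 4096 (inP [85, 170]) = 1024 by decide +kernel, show Rb ρ R = Lp from le_antisymm
        (by rintro _ ⟨g, hg, rfl⟩; exact ((mR g).1 hg).2) fun r hr => (P1 r hr).imp fun g x =>
          ⟨(mR g).2 ⟨x.2.1, x.2.2 ▸ hr⟩, x.2.2⟩]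
    omega
  have zR : (center R).map R.subtype = V := Subgroup.ext fun x => mem_center_map.trans ⟨fun ⟨a, b⟩ => by
    have := (f.ker ⟨x, Cz (RC a)⟩).1 (eq_one_of_fix (f.N0 _) (fx _ (RC a)).2 fun v hv => by
      obtain ⟨y, hy, rfl⟩ := f.co.surj v
      exact (f.fix_iff _ hy).2 (Or.inl (conj_eq_of_comm (b y (QR y hy hv)).symm)))
    refine (VQ x).2 ⟨this, fun c hc => ?_⟩
    obtain ⟨y, hy, e⟩ := f.co.surj (dec c)
    exact e ▸ (f.co.polar_iff this hy).2 (b y (QR y hy (e ▸ dec_mem_perp.2 ((allL_iff _ _).1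
      (by decide +kernel : allL ellL (inP [85, 170]) = true) c hc)))).symm,
    fun a => ⟨QR x ((VQ x).1 a).1 (ell_le ((VQ x).1 a).2), fun q hq => (RC hq x a).symm⟩⟩
  have mZ : ∀ x : R, QuotientGroup.mk' (center R) x = 1 ↔ (x : G) ∈ V := fun x => by
    rw [← zR, QuotientGroup.mk'_apply, QuotientGroup.eq_one_iff]; simp
  generalize hμ : QuotientGroup.mk' (center R) = μ at mZ
  have cm : ∀ x y : R, (x * y * (x : G)⁻¹ * (y : G)⁻¹ : G) ∈ V → Commute (μ x) (μ y) := fun x y a =>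
    commutatorElement_eq_one_iff_commute.1 ((map_commutatorElement μ x y).symm.trans ((mZ _).2 a))
  have k1 : ∀ x y : R, (y : G) ∈ Q → Commute (μ x) (μ y) := fun x y a => cm x y <| by
    have b := f.norm ⟨x, Cz (RC x.2)⟩ a
    refine (VQ _).2 ⟨mul_mem b (inv_mem a), ?_⟩
    rw [f.co.map_mul _ b _ (inv_mem a), f.co.map_inv a, ← f.act ⟨x, Cz (RC x.2)⟩ _ a]
    exact ((mR ⟨x, _⟩).1 x.2).2.2 _ ((PQ _ a).1 (RC y.2))
  have dc : ∀ x : R, ∃ a b : R, (a : G) ∈ Q ∧ (b : G) ∈ Q1 ∧ x = a * b := fun x => by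
    have a := ((mR ⟨x, Cz (RC x.2)⟩).1 x.2).2
    obtain ⟨g, g1, g2, g3⟩ := P1 _ a
    exact ⟨x * (⟨g, (mR g).2 ⟨g2, g3 ▸ a⟩⟩ : R)⁻¹, ⟨g, _⟩, (f.ker (⟨x, Cz (RC x.2)⟩ * g⁻¹)).1 (by simp [g3]), g1,
      (inv_mul_cancel_right _ _).symm⟩
  have or2 : ∀ {x : G} i, x = 1 ∨ x = ![z, s, t] i → x ∈ V := fun i a => a.elim (· ▸ one_mem V) (· ▸ h.bV i)
  have c1 : commutator R ≤ center R := commutator_le.2 fun x _ y _ => by
    obtain ⟨a, b, a1, b1, rfl⟩ := dc x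
    obtain ⟨c, d, c1, d1, rfl⟩ := dc y
    rw [← QuotientGroup.ker_mk' (center R), hμ, MonoidHom.mem_ker, map_commutatorElement,
      commutatorElement_eq_one_iff_commute, map_mul μ c, map_mul]
    exact (map_mul μ a b ▸ k1 _ c c1).mul_right ((k1 d a a1).symm.mul_left (cm _ _ (or2 1 (p.h1.es.commutator b1 d1))))
  have c2 : center R ≤ commutator R := by
    rw [← map_le_map_iff_of_injective R.subtype_injective, zR, map_subtype_commutator]
    refine h.le_of_conj ?_ fun g hg x hx => ?_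
    · obtain ⟨a, a1, a2⟩ := f.co.surj (dec 256)
      obtain ⟨b, b1, b2⟩ := f.co.surj (dec 512)
      refine (f.co.es.commutator a1 b1).resolve_left (fun e => ?_) ▸ commutator_mem_commutator
        (QR a a1 (a2 ▸ dec_mem_perp.2 (by decide +kernel))) (QR b b1 (b2 ▸ dec_mem_perp.2 (by decide +kernel)))
      have := (f.co.polar_iff a1 b1).2 (commutatorElement_eq_one_iff_mul_comm.1 e)
      rw [a2, b2, B0_dec_zero] at this
      exact absurd this (by decide +kernel)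
    · have l : R.map (MulAut.conj g).toMonoidHom ≤ R := by rintro _ ⟨y, hy, rfl⟩; exact nR g hg y hy
      exact commutator_mono l l ((map_commutator R R _).le ⟨x, hx, rfl⟩)
  have pR : IsPGroup 2 R := IsPGroup.of_card cR
  refine ⟨⟨pR, le_antisymm (Core.frattini_le_of_commutator_le_of_pow_mem Nat.prime_two c1 fun x => ?_)
    (c2.trans (Core.commutator_le_frattini_of_isPGroup pR)), le_antisymm c1 c2⟩, cR, zR⟩
  obtain ⟨a, b, a1, b1, rfl⟩ := dc x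
  rw [← QuotientGroup.ker_mk' (center R), hμ, MonoidHom.mem_ker, map_pow, map_mul, (k1 b a a1).symm.mul_pow, pow_two,
    pow_two, ← map_mul, ← map_mul, (mZ _).2 (or2 0 (f.co.es.sq a1)), (mZ _).2 (or2 1 (p.h1.es.sq b1)), mul_one]

end CfsgLib.F24T
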